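-- Team project OMG (S2415, helper94), package [MIXA] (helper24): an isometry of odd prime order
-- `r ∣ q² + 1` of the minus space whose fixed space is nondegenerate of plus type of dimension
-- `2 k - 2` and whose moved space (dimension 4) is irreducible.
import Mathlib
import Cfsg.Agent.Lib.Helper94.OMG.Defs
import Cfsg.Agent.Lib.Helper58.OElm.Defs
import Cfsg.Agent.Lib.Helper44.OElp.Asm
import Cfsg.Agent.Lib.Helper99.OTSP.Defs

set_option autoImplicit false
open scoped MatrixGroups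
open Matrix

namespace Cfsg.Agent.Lib.Helper24.OMG

open Cfsg.Agent.Lib.Helper23.OHyp Cfsg.Agent.Lib.Helper44.OElp Cfsg.Agent.Lib.Helper64.OParM
  Cfsg.Agent.Lib.Helper58.OElm Cfsg.Agent.Lib.Helper94.OMG

universe u

/-- an odd prime divisor of `q ^ 2 + 1` -/
theorem exists_odd_prime_dvd_sq_add_one (q : ℕ) (hq : 2 ≤ q) :
    ∃ r : ℕ, r.Prime ∧ r ≠ 2 ∧ r ∣ q ^ 2 + 1 := by
  rcases Nat.eq_two_pow_or_exists_odd_prime_and_dvd (q ^ 2 + 1) with ⟨e, he⟩ | ⟨p, hp, hpd, hodd⟩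
  · exfalso
    have he2 : 2 ≤ e := by
      by_contra hlt
      push Not at hlt
      have h1 : 2 ^ e ≤ 2 ^ 1 := Nat.pow_le_pow_right (by norm_num) (by omega)
      nlinarith
    obtain ⟨e', rfl⟩ := Nat.exists_eq_add_of_le he2
    have h4 : 4 ∣ q ^ 2 + 1 := by
      rw [he, pow_add]
      exact dvd_mul_right _ _
    obtain ⟨c, hc | hc⟩ : ∃ c, q = 2 * c ∨ q = 2 * c + 1 := ⟨q / 2, by omega⟩
    · subst hc
      have h5 : (2 * c) ^ 2 + 1 = 4 * (c * c) + 1 := by ring
      omega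
    · subst hc
      have h5 : (2 * c + 1) ^ 2 + 1 = 4 * (c * c + c) + 2 := by ring
      omega
  · refine ⟨p, hp, ?_, hpd⟩
    rintro rfl
    exact (by decide : ¬ Odd 2) hodd

/-- `q` has order `4` modulo an odd prime divisor of `q ^ 2 + 1` -/
theorem ordI_eq_four {q r : ℕ} (hr : r.Prime) (hr2 : r ≠ 2) (hd : r ∣ q ^ 2 + 1) :
    ordI q r = 4 := by
  haveI : Fact r.Prime := ⟨hr⟩
  unfold ordI
  have h1 : ((q : ℕ) : ZMod r) ^ 2 = -1 := by
    have h0 : ((q ^ 2 + 1 : ℕ) : ZMod r) = 0 := (ZMod.natCast_eq_zero_iff _ _).mpr hd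
    push_cast at h0
    linear_combination h0
  have h2 : ¬ ((q : ℕ) : ZMod r) ^ 2 ^ 1 = 1 := by
    rw [pow_one, h1]
    intro h
    have h3 : ((2 : ℕ) : ZMod r) = 0 := by
      push_cast
      linear_combination -h
    rw [ZMod.natCast_eq_zero_iff] at h3
    exact hr2 ((Nat.prime_dvd_prime_iff_eq hr Nat.prime_two).mp h3)
  have h4 : ((q : ℕ) : ZMod r) ^ 2 ^ (1 + 1) = 1 := by
    have h5 : ((q : ℕ) : ZMod r) ^ 2 ^ (1 + 1) = (((q : ℕ) : ZMod r) ^ 2) ^ 2 := by ring
    rw [h5, h1]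
    ring
  have h6 := orderOf_eq_prime_pow h2 h4
  rw [h6]
  norm_num

/-- [MIXA] from the landed packages -/
theorem pkgMixA_of (hEx : PkgExistME.{u}) (hSp : PkgSplitE.{u}) (hDv : PkgDivE.{u})
    (hSm : PkgSumE.{u}) (hMQ : PkgMinusQE.{u})
    (hDim : Cfsg.Agent.Lib.Helper99.OTSP.PkgDimI.{u}) : PkgMixA.{u} := by
  intro F _ _ k a b hab hk
  have hq2 : 2 ≤ Fintype.card F := Fintype.one_lt_card
  obtain ⟨r, hr, hr2, hrd⟩ := exists_odd_prime_dvd_sq_add_one (Fintype.card F) hq2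
  have hrq : ¬ r ∣ Fintype.card F := by
    intro h
    have h1 : r ∣ Fintype.card F ^ 2 := dvd_pow h (by norm_num)
    have h2 : r ∣ 1 := (Nat.dvd_add_right h1).mp hrd
    exact hr.one_lt.ne' (Nat.dvd_one.mp h2)
  have hi : ordI (Fintype.card F) r = 4 := ordI_eq_four hr hr2 hrd
  obtain ⟨hQnd, hNP⟩ := hMQ F k a b hab
  obtain ⟨x, hxG, hxord, hxfix⟩ := hEx F k r a b hab hr hr2 hrq (by rw [hi]; decide) 1 le_rfl
    (by rw [hi]; omega) (by rw [hi]; intro h; omega)
  obtain ⟨X, hX⟩ : ∃ X : Matrix (MI k) (MI k) F, X = (x : Matrix (MI k) (MI k) F) := ⟨_, rfl⟩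
  rw [← hX, hi] at hxfix
  have hstd : StdE (Cfsg.quadFormMinus k F a b) r X := by
    rw [hX]
    exact stdE_of_order hQnd hr hr2 hrq hxG hxord
  have hstdQ : Cfsg.Agent.Lib.Helper99.OTSP.StdQ (Cfsg.quadFormMinus k F a b) r X :=
    ⟨hstd.nondeg, hstd.prime, hstd.ne_two, hstd.ndvd, hstd.pow, hstd.isom⟩
  obtain ⟨hNdC, hNdN, hPerp, hCompl, hInvN, -⟩ := hSp F (MI k) _ r X hstd
  have hcard : Fintype.card (MI k) = 2 * k + 2 := by
    simp
    omega
  obtain ⟨-, hfr, hplus⟩ := hSm F (MI k) _ hQnd _ _ hNdC hNdN hPerp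
  rw [hCompl.sup_eq_top] at hplus
  rw [hCompl.sup_eq_top, finrank_top, Module.finrank_fintype_fun_eq_card, hcard] at hfr
  have hfC : Module.finrank F (fixSp X) = 2 * k - 2 := by omega
  have hfN : Module.finrank F (movSp X) = 4 := by omega
  obtain ⟨-, hplN⟩ := hDv F (MI k) _ r X hstd (movSp X) le_rfl hInvN hNdN
  have hnpN : ¬ Plus (Cfsg.quadFormMinus k F a b) (movSp X) := by
    rw [hplN, hi, hfN]
    decide
  have hplC : Plus (Cfsg.quadFormMinus k F a b) (fixSp X) := by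
    by_contra hcon
    have h1 := hplus (by rw [hfC]; exact ⟨k - 1, by omega⟩) (by rw [hfN]; decide)
    exact hNP (h1.mpr ⟨fun h => absurd h hcon, fun h => absurd h hnpN⟩)
  have hmat : ∀ j : ℕ, matM ((⟨x, hxG⟩ : ↥(GM k F a b)) ^ j) = X ^ j := by
    intro j
    rw [hX]
    show (((⟨x, hxG⟩ : ↥(GM k F a b)) ^ j : ↥(GM k F a b)) : GL (MI k) F).1 = _
    rw [Subgroup.coe_pow, Units.val_pow_eq_pow_val]
  have hmat1 : matM (⟨x, hxG⟩ : ↥(GM k F a b)) = X := by rw [hX]
  refine ⟨r, ⟨x, hxG⟩, hr, hr2, hrd, ?_, ?_, ?_, ?_, ?_, ?_, ?_⟩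
  · apply Subtype.ext
    rw [Subgroup.coe_pow]
    have h := pow_orderOf_eq_one x
    rw [hxord] at h
    exact h
  · rw [hmat1]; exact hfC
  · rw [hmat1]; exact hNdC
  · rw [hmat1]; exact hplC
  · rw [hmat1]; exact hPerp
  · rw [hmat1]; exact hCompl
  · rw [hmat1]
    intro v hv hv0 w hw
    simp only [hmat]
    -- the span of the orbit
    have hInv' : ∀ u : MI k → F, u ∈ movSp X → X *ᵥ u ∈ movSp X := by
      intro u hu
      have h1 := hInvN (Submodule.mem_map_of_mem hu)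
      rwa [Matrix.toLin'_apply] at h1
    have hL_le : Submodule.span F (Set.range fun j : ℕ => (X ^ j) *ᵥ v) ≤ movSp X := by
      rw [Submodule.span_le]
      rintro _ ⟨j, rfl⟩
      show (X ^ j) *ᵥ v ∈ movSp X
      induction j with
      | zero => simpa using hv
      | succ j ih =>
        rw [pow_succ', ← Matrix.mulVec_mulVec]
        exact hInv' _ ih
    have hL_inv : Inv X (Submodule.span F (Set.range fun j : ℕ => (X ^ j) *ᵥ v)) := by
      show Submodule.map (Matrix.toLin' X) _ ≤ _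
      rw [Submodule.map_span_le]
      rintro _ ⟨j, rfl⟩
      rw [Matrix.toLin'_apply]
      apply Submodule.subset_span
      refine ⟨j + 1, ?_⟩
      show (X ^ (j + 1)) *ᵥ v = X *ᵥ ((X ^ j) *ᵥ v)
      rw [pow_succ', ← Matrix.mulVec_mulVec]
    have hvL : v ∈ Submodule.span F (Set.range fun j : ℕ => (X ^ j) *ᵥ v) := by
      apply Submodule.subset_span
      exact ⟨0, by simp⟩
    have hdim := hDim F (MI k) _ r X hstdQ _ hL_le hL_inv
    rw [hi] at hdim
    have hle := Submodule.finrank_mono hL_le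
    rw [hfN] at hle
    have hne : Module.finrank F
        (Submodule.span F (Set.range fun j : ℕ => (X ^ j) *ᵥ v)) ≠ 0 := by
      intro h0
      rw [Submodule.finrank_eq_zero] at h0
      rw [h0, Submodule.mem_bot] at hvL
      exact hv0 hvL
    have h4 : Module.finrank F
        (Submodule.span F (Set.range fun j : ℕ => (X ^ j) *ᵥ v)) = 4 := by
      obtain ⟨t, ht⟩ := hdim
      omega
    have hEq := Submodule.eq_of_le_of_finrank_eq hL_le (by rw [h4, hfN])
    rw [hEq]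
    exact hw

end Cfsg.Agent.Lib.Helper24.OMG
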