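-- Team project OMG (S2415, helper94), package [MIXA] (helper24): the unconditional statement.
import Mathlib
import Cfsg.Agent.Lib.Helper24.OMG.MixA
import Cfsg.Agent.Lib.Helper39.OElm.ExistME
import Cfsg.Agent.Lib.Helper25.OElp.SplitE
import Cfsg.Agent.Lib.Helper25.OElp.DivE
import Cfsg.Agent.Lib.Helper59.OElp.BlkE
import Cfsg.Agent.Lib.Helper87.OHyp.Perp
import Cfsg.Agent.Lib.Helper1.OElp.SumE
import Cfsg.Agent.Lib.Helper53.OElm.MinusQE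
import Cfsg.Agent.Lib.Helper34.OTSP.DimI

set_option autoImplicit false

namespace Cfsg.Agent.Lib.Helper24.OMG

universe u

/-- [MIXA], unconditional -/
theorem pkgMixA : Cfsg.Agent.Lib.Helper94.OMG.PkgMixA.{u} :=
  pkgMixA_of Cfsg.Agent.Lib.Helper39.OElm.pkgExistME Cfsg.Agent.Lib.Helper25.OElp.pkgSplitE
    (Cfsg.Agent.Lib.Helper25.OElp.pkgDivE_of Cfsg.Agent.Lib.Helper59.OElp.pkgBlkE
      Cfsg.Agent.Lib.Helper87.OHyp.pkgPerp Cfsg.Agent.Lib.Helper1.OElp.pkgSumE)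
    Cfsg.Agent.Lib.Helper1.OElp.pkgSumE Cfsg.Agent.Lib.Helper53.OElm.pkgMinusQE
    Cfsg.Agent.Lib.Helper34.OTSP.pkgDimI

example : Cfsg.Agent.Lib.Helper94.OMG.PkgMixA.{0} := pkgMixA
example : Cfsg.Agent.Lib.Helper94.OMG.PkgMixA.{3} := pkgMixA

end Cfsg.Agent.Lib.Helper24.OMG
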